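import Cfsg.Agent.Lib.Syl54.Bound
import Cfsg.Agent.Lib.Chev.OrdE6
import Cfsg.Agent.Lib.Chev.TorusCard

/-!
# The Sylow subgroups of the Chevalley group of type E6 for primes prime to the Weyl group
-/

set_option autoImplicit false
set_option linter.unusedSectionVars false
set_option linter.unusedVariables false
set_option linter.unusedSimpArgs false
set_option maxRecDepth 100000

namespace Cfsg.Agent.Lib.Syl54.TE6

open Cfsg Cfsg.Lie Cfsg.Agent.Lib.Chev Matrix Cfsg.Agent.Lib.ChevFix Cfsg.Agent.Lib.TwTor32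

theorem hFX : Full TabE6.T TabE6.X RootE6T.R chevE6 := ⟨RelE6.checks, RootE6.checks⟩

theorem card_Wk : Nat.card ↥(hFX.Wk Set.univ) = ([2, 5, 6, 8, 9, 12] : List ℕ).prod := by
  classical
  have h := OrdE6.poin_univ hFX 1
  unfold Full.poin at h
  simp only [one_pow, Finset.sum_const, smul_eq_mul, mul_one] at h
  rw [Nat.card_eq_fintype_card, Fintype.card_subtype]
  exact h

theorem hlr {r : ℕ} (hp : r.Prime) (h : ¬ r ∣ ([2, 5, 6, 8, 9, 12] : List ℕ).prod) : chevE6.rank < r := by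
  show 6 < r
  by_contra h1
  have h2 : r ≤ 6 := by omega
  have h3 : ∀ x ∈ Finset.range (6 + 1), x.Prime → x ∣ ([2, 5, 6, 8, 9, 12] : List ℕ).prod := by
    decide +kernel
  exact h (h3 r (Finset.mem_range.2 (by omega)) hp)

def zD : Fin chevE6.rank → ℤ := (![1, 0, 2, 0, 1, 2] : Fin 6 → ℤ)

def Lt : List (Fin chevE6.rank → ℤ) := ([![1, 0, 0, 0, 0, 0], ![-1, -1, 0, 1, 0, 0], ![-1, -1, 1, 0, 0, 0], ![-1, 0, 0, 0, 0, 0], ![-1, 0, 0, 0, 0, 1], ![-1, 0, 0, 0, 1, -1], ![-1, 0, 0, 1, -1, 0], ![-1, 0, 1, -1, 1, 0], ![-1, 0, 1, 0, -1, 1], ![-1, 0, 1, 0, 0, -1], ![-1, 0, 1, 0, 0, 0], ![-1, 1, 0, 0, 0, 0], ![-1, 1, 1, -1, 0, 0], ![0, -1, -1, 1, 0, 0], ![0, -1, 0, 0, 0, 1], ![0, -1, 0, 0, 1, -1], ![0, -1, 0, 0, 1, 0], ![0, -1, 0, 1, -1, 0], ![0, -1, 0, 1, -1, 1], ![0, -1, 0, 1, 0, -1], ![0, -1, 1, 0, 0, 0], ![0, 0, -1, 0, 1, 0], ![0, 0, -1, 1,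 -1, 1], ![0, 0, -1, 1, 0, -1], ![0, 0, -1, 1, 0, 0], ![0, 0, 0, -1, 1, 0], ![0, 0, 0, 0, -1, 1], ![0, 0, 0, 0, 0, -1], ![0, 0, 0, 0, 0, 1], ![0, 0, 0, 0, 1, -1], ![0, 0, 0, 1, -1, 0], ![0, 0, 1, -1, 0, 0], ![0, 0, 1, -1, 0, 1], ![0, 0, 1, -1, 1, -1], ![0, 0, 1, 0, -1, 0], ![0, 1, -1, 0, 0, 0], ![0, 1, 0, -1, 0, 1], ![0, 1, 0, -1, 1, -1], ![0, 1, 0, -1, 1, 0], ![0, 1, 0, 0, -1, 0], ![0, 1, 0, 0, -1, 1], ![0, 1, 0, 0, 0, -1], ![0, 1, 1, -1, 0, 0], ![1, -1, -1, 1, 0, 0], ![1, -1, 0, 0, 0, 0], ![1, 0, -1, 0, 0, 0], ![1, 0, -1, 0, 0, 1], ![1, 0, -1, 0, 1, -1], ![1, 0, -1, 1, -1, 0], ![1, 0, 0, -1, 1, 0], ![1, 0, 0, 0, -1, 1], ![1, 0, 0, 0, 0, -1], ![1, 1, -1, 0, 0, 0], ![1, 1, 0, -1, 0, 0]] : List (Fin 6 → ℤ))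

theorem hz : ∀ j : Fin chevE6.rank, (3 : ℤ) ∣ ∑ k : Fin chevE6.rank, chevE6.cartan j (chevE6.simple k) * zD k := by
  decide +kernel

theorem chkA : ∀ f ∈ Lt, (∀ s : Fin chevE6.nroots, -1 ≤ f ⬝ᵥ rcV RootE6T.R chevE6 s ∧ f ⬝ᵥ rcV RootE6T.R chevE6 s ≤ 1) ∧
    ¬ (3 : ℤ) ∣ 2 * (f ⬝ᵥ zD) := by
  decide +kernel

theorem chkB : ∀ s s' : Fin chevE6.nroots, (∀ j, rcV RootE6T.R chevE6 s j + rcV RootE6T.R chevE6 s' j = 0) ∨
    ∃ f ∈ Lt, f ⬝ᵥ rcV RootE6T.R chevE6 s + f ⬝ᵥ rcV RootE6T.R chevE6 s' = 0 := by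
  decide +kernel

theorem hG : ∀ f, f ∈ Lt → Bdd RootE6T.R chevE6 f := by
  intro f hf s
  rw [abs_le]
  exact (chkA f hf).1 s

theorem hG2 : ∀ f, f ∈ Lt → ¬ (3 : ℤ) ∣ 2 * (f ⬝ᵥ zD) := fun f hf => (chkA f hf).2

theorem hchk : ∀ s s' : Fin chevE6.nroots, rcV RootE6T.R chevE6 s + rcV RootE6T.R chevE6 s' ≠ 0 →
    ∃ f, f ∈ Lt ∧ f ⬝ᵥ rcV RootE6T.R chevE6 s + f ⬝ᵥ rcV RootE6T.R chevE6 s' = 0 := by
  intro s s' h
  rcases chkB s s' with h1 | h1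
  · exact absurd (funext h1) h
  · exact h1

def f₁ : Fin chevE6.rank → ℤ := (![1, 0, 0, 0, 0, 0] : Fin 6 → ℤ)

theorem hf₁ : f₁ ∈ Lt := List.mem_cons_self ..

theorem hdot : f₁ ⬝ᵥ zD = 1 := by
  decide +kernel

theorem excluded {r : ℕ} [Fact r.Prime] (hr : ¬ r ∣ ([2, 5, 6, 8, 9, 12] : List ℕ).prod) {ρ : Equiv.Perm (Fin chevE6.nroots)}
    (hρ : ρ ∈ hFX.Wk Set.univ) {u : ZMod r} (hu : u ^ ([2, 5, 6, 8, 9, 12] : List ℕ).prod = 1) (h0 : 0 < ([2, 5, 6, 8, 9, 12] : List ℕ).prod)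
    (hA : mat hFX ρ ^ ([2, 5, 6, 8, 9, 12] : List ℕ).prod = 1) (hlr : chevE6.rank < r)
    (h3 : (orderOf u = 2 ∧ 5 ≤ Module.finrank (ZMod r) (Eg r (mat hFX ρ) u)) ∨
      ((orderOf u = 4 ∨ orderOf u = 6) ∧ Module.finrank (ZMod r) (Eg r (mat hFX ρ) u) = 3)) : False := by
  have hl : chevE6.rank = 6 := rfl
  rcases h3 with ⟨h3, hm⟩ | ⟨h3 | h3, hm⟩
  · have h4 := ord2 h3
    rw [h4] at hm
    exact excl_b (r := r) hFX hz hG hG2 hf₁ hchk (by omega) hρ (by omega)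
  · refine excl_a hFX hz (hG _ hf₁) (t := 0) (by norm_num) ?_ (by omega) h0 hr hρ hA hlr hu (ord4 h3)
      (ne_inv (pow_orderOf_eq_one u) (by omega) (by rw [h3]; norm_num)) (by rw [hm, hl])
    rw [hdot]
    norm_num
  · refine excl_a hFX hz (hG _ hf₁) (t := 1) (by norm_num) ?_ (by omega) h0 hr hρ hA hlr hu (ord6 h3)
      (ne_inv (pow_orderOf_eq_one u) (by omega) (by rw [h3]; norm_num)) (by rw [hm, hl])
    rw [hdot]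
    norm_num

theorem chk : ∀ e ∈ ([2, 5, 6, 8, 9, 12] : List ℕ), ∀ d ∈ Nat.divisors e, ∀ m ∈ Finset.range (6 + 1),
    Nat.totient d * m ≤ 6 → m ≤ (([2, 5, 6, 8, 9, 12] : List ℕ).filter (fun e => d ∣ e)).length ∨ ((d = 2 ∧ 5 ≤ m) ∨ ((d = 4 ∨ d = 6) ∧ m = 3)) := by
  decide +kernel

theorem hbd (r : ℕ) [Fact r.Prime] (hr : ¬ r ∣ ([2, 5, 6, 8, 9, 12] : List ℕ).prod) (ρ : Equiv.Perm (Fin chevE6.nroots))
    (hρ : ρ ∈ hFX.Wk Set.univ) (u : ZMod r) (hu : u ^ ([2, 5, 6, 8, 9, 12] : List ℕ).prod = 1)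
    (hne : ([2, 5, 6, 8, 9, 12] : List ℕ).filter (fun e => orderOf u ∣ e) ≠ []) :
    Module.finrank (ZMod r) (Eg r (mat hFX ρ) u) ≤ (([2, 5, 6, 8, 9, 12] : List ℕ).filter (fun e => orderOf u ∣ e)).length := by
  obtain ⟨h1, h2, ⟨e, he, hd⟩, h0, hA⟩ := bound_gen hFX [2, 5, 6, 8, 9, 12] (by decide) card_Wk hr (hlr Fact.out hr) hρ hu hne
  have hE0 : ∀ e ∈ ([2, 5, 6, 8, 9, 12] : List ℕ), 0 < e := by decide
  have he0 : 0 < e := hE0 e he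
  have h3 := chk e he _ (Nat.mem_divisors.2 ⟨hd, he0.ne'⟩) _ (Finset.mem_range.2 (by
    have : chevE6.rank = 6 := rfl
    omega)) h1
  rcases h3 with h3 | h3
  · exact h3
  · exfalso
    exact excluded hr hρ hu h0 hA (hlr Fact.out hr) h3

theorem hGen {K : Type*} [Field K] [Fintype K] :
    (fun n => Nat.gcd 3 (n - 1)) (Fintype.card K) * Nat.card ↥(chevE6.group K) =
      Fintype.card K ^ 36 * (([2, 5, 6, 8, 9, 12] : List ℕ).map (fun e => Fintype.card K ^ e - 1)).prod := by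
  simp only [List.map_cons, List.map_nil, List.prod_cons, List.prod_nil, mul_one, one_mul]
  rw [OrdE6.card_group hFX]
  ring

theorem result {F : Type*} [Field F] [Fintype F] {q : ℕ} (hq : Fintype.card F = q) (r : ℕ) [Fact r.Prime]
    (hrq : ¬ r ∣ q) (hrW : ¬ r ∣ ([2, 5, 6, 8, 9, 12] : List ℕ).prod) (hrG : r ∣ Nat.card ↥(chevE6.group F))
    (P : Sylow r ↥(chevE6.group F)) :
    Nonempty (↥(P : Subgroup ↥(chevE6.group F)) ≃*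
      (Fin (([2, 5, 6, 8, 9, 12] : List ℕ).filter (fun e => orderOf (q : ZMod r) ∣ e)).length →
        Multiplicative (ZMod (r ^ padicValNat r ((Polynomial.cyclotomic (orderOf (q : ZMod r)) ℤ).eval (q : ℤ)).natAbs)))) :=
  generic hFX [2, 5, 6, 8, 9, 12] 36 (fun n => Nat.gcd 3 (n - 1)) (by decide) rfl (fun _ => Nat.gcd_pos_of_pos_left _ (by norm_num))
    (fun r n hr hE h => hE ((h.trans (Nat.gcd_dvd_left _ _)).trans (by decide)))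
    (fun K _ _ => hGen) (fun K _ _ => Full.torus_card_E6 (F := K) hFX) card_Wk
    (fun r _ hr ρ hρ u hu hne => hbd r hr ρ hρ u hu hne) hGen hq r hrq hrW hrG P

end Cfsg.Agent.Lib.Syl54.TE6
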