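import Cfsg.Agent.Lib.Syl54.Bound
import Cfsg.Agent.Lib.Chev.OrdE8
import Cfsg.Agent.Lib.Chev.TorusCard

/-!
# The Sylow subgroups of the Chevalley group of type E8 for primes prime to the Weyl group
-/

set_option autoImplicit false
set_option linter.unusedSectionVars false
set_option linter.unusedVariables false
set_option linter.unusedSimpArgs false
set_option maxRecDepth 100000

namespace Cfsg.Agent.Lib.Syl54.TE8

open Cfsg Cfsg.Lie Cfsg.Agent.Lib.Chev Matrix Cfsg.Agent.Lib.ChevFix Cfsg.Agent.Lib.TwTor32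

theorem hFX : Full TabE8.T TabE8.X RootE8T.R chevE8 := ⟨RelE8.checks, RootE8.checks⟩

theorem card_Wk : Nat.card ↥(hFX.Wk Set.univ) = ([2, 8, 12, 14, 18, 20, 24, 30] : List ℕ).prod := by
  classical
  have h := OrdE8.poin_univ hFX 1
  unfold Full.poin at h
  simp only [one_pow, Finset.sum_const, smul_eq_mul, mul_one] at h
  rw [Nat.card_eq_fintype_card, Fintype.card_subtype]
  exact h

theorem hlr {r : ℕ} (hp : r.Prime) (h : ¬ r ∣ ([2, 8, 12, 14, 18, 20, 24, 30] : List ℕ).prod) : chevE8.rank < r := by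
  show 8 < r
  by_contra h1
  have h2 : r ≤ 8 := by omega
  have h3 : ∀ x ∈ Finset.range (8 + 1), x.Prime → x ∣ ([2, 8, 12, 14, 18, 20, 24, 30] : List ℕ).prod := by
    decide +kernel
  exact h (h3 r (Finset.mem_range.2 (by omega)) hp)


theorem chk : ∀ e ∈ ([2, 8, 12, 14, 18, 20, 24, 30] : List ℕ), ∀ d ∈ Nat.divisors e, ∀ m ∈ Finset.range (8 + 1),
    Nat.totient d * m ≤ 8 → m ≤ (([2, 8, 12, 14, 18, 20, 24, 30] : List ℕ).filter (fun e => d ∣ e)).length := by
  decide +kernel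

theorem hbd (r : ℕ) [Fact r.Prime] (hr : ¬ r ∣ ([2, 8, 12, 14, 18, 20, 24, 30] : List ℕ).prod) (ρ : Equiv.Perm (Fin chevE8.nroots))
    (hρ : ρ ∈ hFX.Wk Set.univ) (u : ZMod r) (hu : u ^ ([2, 8, 12, 14, 18, 20, 24, 30] : List ℕ).prod = 1)
    (hne : ([2, 8, 12, 14, 18, 20, 24, 30] : List ℕ).filter (fun e => orderOf u ∣ e) ≠ []) :
    Module.finrank (ZMod r) (Eg r (mat hFX ρ) u) ≤ (([2, 8, 12, 14, 18, 20, 24, 30] : List ℕ).filter (fun e => orderOf u ∣ e)).length := by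
  obtain ⟨h1, h2, ⟨e, he, hd⟩, h0, hA⟩ := bound_gen hFX [2, 8, 12, 14, 18, 20, 24, 30] (by decide) card_Wk hr (hlr Fact.out hr) hρ hu hne
  have hE0 : ∀ e ∈ ([2, 8, 12, 14, 18, 20, 24, 30] : List ℕ), 0 < e := by decide
  have he0 : 0 < e := hE0 e he
  exact chk e he _ (Nat.mem_divisors.2 ⟨hd, he0.ne'⟩) _ (Finset.mem_range.2 (by
    have : chevE8.rank = 8 := rfl
    omega)) h1

theorem hGen {K : Type*} [Field K] [Fintype K] :
    (fun _ => 1) (Fintype.card K) * Nat.card ↥(chevE8.group K) =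
      Fintype.card K ^ 120 * (([2, 8, 12, 14, 18, 20, 24, 30] : List ℕ).map (fun e => Fintype.card K ^ e - 1)).prod := by
  simp only [List.map_cons, List.map_nil, List.prod_cons, List.prod_nil, mul_one, one_mul]
  rw [OrdE8.card_group hFX]
  ring

theorem result {F : Type*} [Field F] [Fintype F] {q : ℕ} (hq : Fintype.card F = q) (r : ℕ) [Fact r.Prime]
    (hrq : ¬ r ∣ q) (hrW : ¬ r ∣ ([2, 8, 12, 14, 18, 20, 24, 30] : List ℕ).prod) (hrG : r ∣ Nat.card ↥(chevE8.group F))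
    (P : Sylow r ↥(chevE8.group F)) :
    Nonempty (↥(P : Subgroup ↥(chevE8.group F)) ≃*
      (Fin (([2, 8, 12, 14, 18, 20, 24, 30] : List ℕ).filter (fun e => orderOf (q : ZMod r) ∣ e)).length →
        Multiplicative (ZMod (r ^ padicValNat r ((Polynomial.cyclotomic (orderOf (q : ZMod r)) ℤ).eval (q : ℤ)).natAbs)))) :=
  generic hFX [2, 8, 12, 14, 18, 20, 24, 30] 120 (fun _ => 1) (by decide) rfl (fun _ => one_pos)
    (fun r n hr _ h => hr.one_lt.ne' (Nat.dvd_one.1 h))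
    (fun K _ _ => hGen) (fun K _ _ => Full.torus_card_E8 (F := K) hFX) card_Wk
    (fun r _ hr ρ hρ u hu hne => hbd r hr ρ hρ u hu hne) hGen hq r hrq hrW hrG P

end Cfsg.Agent.Lib.Syl54.TE8
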